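import Cfsg.Agent.H6.Diag1
import Cfsg.Agent.H1.BD1b

/-! `p`-subgroups normalised by a separating diagonal group contain elementary transvections. -/

set_option autoImplicit false
set_option linter.unusedSimpArgs false
set_option linter.unusedSectionVars false
set_option linter.unusedVariables false

namespace Cfsg.Agent.H9.C5

open Matrix Subgroup

variable {F : Type*} [Field F] {ι : Type} [Fintype ι] [DecidableEq ι]

/-- `K` contains the matrix `X` -/
def InM (K : Subgroup (GL ι F)) (X : Matrix ι ι F) : Prop := ∃ k ∈ K, (k : Matrix ι ι F) = X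

section
variable {K : Subgroup (GL ι F)} {X Y : Matrix ι ι F}

theorem InM.of {k : GL ι F} (h : k ∈ K) : InM K k := ⟨k, h, rfl⟩

theorem inM_iff {k : GL ι F} : InM K k ↔ k ∈ K := ⟨fun ⟨_, h, e⟩ => Units.ext e ▸ h, InM.of⟩

theorem InM.mul (h : InM K X) (h' : InM K Y) : InM K (X * Y) :=
  let ⟨_, a, b⟩ := h; let ⟨_, c, d⟩ := h'; ⟨_, mul_mem a c, by rw [Units.val_mul, b, d]⟩

theorem InM.congr (h : InM K X) (e : X = Y) : InM K Y := e ▸ h

theorem InM.pow (h : InM K X) (n : ℕ) : InM K (X ^ n) :=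
  let ⟨_, a, b⟩ := h; ⟨_, pow_mem a n, by rw [Units.val_pow_eq_pow_val, b]⟩

theorem InM.mono {L : Subgroup (GL ι F)} (h : InM K X) (e : K ≤ L) : InM L X :=
  let ⟨k, a, b⟩ := h; ⟨k, e a, b⟩

end

open Classical in
theorem fiber (S : Submodule F (Matrix ι ι F)) (χ : ι → ι → F)
    (h : ∀ X ∈ S, (of fun a b => χ a b * X a b) ∈ S) {X : Matrix ι ι F} (hX : X ∈ S) (c : F) :
    (of fun a b => if χ a b = c then X a b else 0) ∈ S := by
  classical
  have key : ∀ T : Finset (ι × ι), ∃ Y ∈ S, (∀ a b, χ a b = c → Y a b = X a b) ∧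
      ∀ a b, (a, b) ∈ T → χ a b ≠ c → Y a b = 0 := by
    intro T
    induction T using Finset.induction_on with
    | empty => exact ⟨X, hX, fun _ _ _ => rfl, by simp⟩
    | insert k T _ ih =>
      obtain ⟨Y, h1, h2, h3⟩ := ih
      by_cases hk : χ k.1 k.2 = c
      · refine ⟨Y, h1, h2, fun a b hab hc => h3 a b ?_ hc⟩
        rcases Finset.mem_insert.1 hab with rfl | h4
        exacts [absurd hk hc, h4]
      refine ⟨(c - χ k.1 k.2)⁻¹ • ((of fun a b => χ a b * Y a b) - χ k.1 k.2 • Y),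
        S.smul_mem _ (S.sub_mem (h _ h1) (S.smul_mem _ h1)), fun a b hab => ?_, fun a b hab hc => ?_⟩
      · have := sub_ne_zero.2 (Ne.symm hk)
        simp only [Matrix.smul_apply, Matrix.sub_apply, of_apply, smul_eq_mul, hab, h2 a b hab]
        field_simp
      · rcases Finset.mem_insert.1 hab with rfl | h4
        · simp
        · simp [h3 a b h4 hc]
  obtain ⟨Y, h1, h2, h3⟩ := key Finset.univ
  convert h1 using 1
  ext a b
  by_cases hc : χ a b = c
  · simp [hc, h2 a b hc]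
  · simp [hc, h3 a b (Finset.mem_univ _) hc]

theorem dg_ne {d : GL ι F} {l : ι → F} (hd : d.1 = diagonal l) (a : ι) : l a ≠ 0 := fun h => by
  have := congrFun (congrFun d.mul_inv a) a
  simp [hd, h] at this

theorem dg_inv {d : GL ι F} {l : ι → F} (hd : d.1 = diagonal l) :
    (d⁻¹).1 = diagonal fun a => (l a)⁻¹ :=
  Units.inv_eq_of_mul_eq_one_right (by simp [hd, dg_ne hd])

theorem dg_cj {d : GL ι F} {l : ι → F} (hd : d.1 = diagonal l) (X : Matrix ι ι F) :
    d.1 * X * (d⁻¹).1 = of fun a b => l a / l b * X a b := by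
  ext a b
  simp only [dg_inv hd, hd, mul_diagonal, diagonal_mul, of_apply]
  ring

/-- separation of the off-diagonal weights -/
def Sep (l m : ι → F) : Prop := ∀ a b a' b', a ≠ b → l a' / l b' = l a / l b →
  m a' / m b' = m a / m b → a' = a ∧ b' = b

theorem fiber2 {S : Submodule F (Matrix ι ι F)} {d e : GL ι F} {l m : ι → F} (hd : d.1 = diagonal l)
    (he : e.1 = diagonal m) (hs : Sep l m) (h1 : ∀ X ∈ S, d.1 * X * (d⁻¹).1 ∈ S)
    (h2 : ∀ X ∈ S, e.1 * X * (e⁻¹).1 ∈ S) {X : Matrix ι ι F} (hX : X ∈ S) {a b : ι} (hab : a ≠ b)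
    (h : X a b ≠ 0) : single a b 1 ∈ S := by
  classical
  have := S.smul_mem (X a b)⁻¹ (fiber S (fun a b => m a / m b) (fun X hX => dg_cj he X ▸ h2 X hX)
    (fiber S (fun a b => l a / l b) (fun X hX => dg_cj hd X ▸ h1 X hX) hX (l a / l b)) (m a / m b))
  convert this using 1
  ext i j
  simp only [Matrix.smul_apply, of_apply, smul_eq_mul]
  by_cases hij : a = i ∧ b = j
  · obtain ⟨rfl, rfl⟩ := hij
    simp [h]
  · rw [single_apply_of_ne _ _ _ _ _ hij]
    split_ifs with h3 h4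
    · exact absurd (hs a b i j hab h4 h3) (fun k => hij ⟨k.1.symm, k.2.symm⟩)
    all_goals simp

variable (p : ℕ) [Fact p.Prime] [CharP F p] [Finite F]
include p

theorem elem_of_ab (hF : ∀ c : F, ∃ n : ℕ, c = n) {A : Subgroup (GL ι F)}
    (hc : ∀ a ∈ A, ∀ b ∈ A, a * b = b * a) (hp : IsPGroup p A) (hA : A ≠ ⊥) {d e : GL ι F}
    {l m : ι → F} (hd : d.1 = diagonal l) (he : e.1 = diagonal m) (hs : Sep l m)
    (n1 : d ∈ normalizer (A : Set (GL ι F))) (n2 : e ∈ normalizer (A : Set (GL ι F))) :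
    ∃ a b, a ≠ b ∧ ∀ c, InM A (1 + single a b c) := by
  let S : Submodule F (Matrix ι ι F) :=
    { carrier := {X | ∀ g ∈ A, X * g.1 = g.1 * X}
      add_mem' := fun hx hy g hg => by rw [add_mul, mul_add, hx g hg, hy g hg]
      zero_mem' := fun g _ => by simp
      smul_mem' := fun c X hx g hg => by rw [smul_mul_assoc, mul_smul_comm, hx g hg] }
  have hS : ∀ k ∈ normalizer (A : Set (GL ι F)), ∀ X ∈ S, k.1 * X * (k⁻¹).1 ∈ S := fun k hk X hX g hg => by
    have := hX _ (H7.BD.nm' hk hg)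
    simp only [Units.val_mul] at this
    calc k.1 * X * (k⁻¹).1 * g.1 = k.1 * (X * ((k⁻¹).1 * g.1 * k.1)) * (k⁻¹).1 := by
          simp only [Matrix.mul_assoc, Units.mul_inv, Matrix.mul_one]
      _ = _ := by rw [this]; simp only [← Matrix.mul_assoc, Units.mul_inv, Matrix.one_mul]
  have k1 : ∀ g ∈ A, ∀ a b, a ≠ b → g.1 a b ≠ 0 → ∀ g' ∈ A, ∀ i ≠ a, g'.1 i a = 0 := by
    intro g hg a b hab h g' hg' i hi
    have := congrFun (congrFun (fiber2 hd he hs (hS d n1) (hS e n2) (X := g.1)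
      (fun k hk => congrArg Units.val (hc g hg k hk)) hab h g' hg') i) b
    simpa [hi] using this.symm
  have k2 : ∀ g ∈ A, ∀ g' ∈ A, ∀ i j, (g'.1 * g.1) i j = g'.1 i i * g.1 i j + g'.1 i j * g.1 j j -
      if i = j then g'.1 i i * g.1 i i else 0 := by
    intro g hg g' hg' i j
    rw [mul_apply]
    have h0 : ∀ k, k ≠ i → k ≠ j → g'.1 i k * g.1 k j = 0 := fun k h1 h2 => by
      by_cases h : g.1 k j = 0
      · simp [h]
      · simp [k1 g hg k j h2 h g' hg' i h1.symm]
    split_ifs with h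
    · subst h
      rw [Finset.sum_eq_single i (fun k _ hk => h0 k hk hk) (by simp)]; ring
    · rw [Finset.sum_eq_add i j h (fun k _ hk => h0 k hk.1 hk.2) (by simp) (by simp)]; ring
  have k3 : ∀ g ∈ A, ∀ i, g.1 i i = 1 := fun g hg i => by
    have h1 : ∀ n : ℕ, (g ^ n).1 i i = g.1 i i ^ n := fun n => by
      induction n with
      | zero => simp
      | succ n ih => rw [pow_succ, Units.val_mul, k2 g hg _ (pow_mem hg n), ih]; simp [pow_succ]
    obtain ⟨n, hn⟩ := hp ⟨g, hg⟩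
    have h2 := h1 (p ^ n)
    rw [show g ^ p ^ n = 1 from congrArg Subtype.val hn] at h2
    have h3 := sub_pow_char_pow (p := p) (g.1 i i) 1 n
    rw [← h2] at h3
    exact sub_eq_zero.1 (pow_eq_zero_iff (pow_ne_zero n (Fact.out : p.Prime).ne_zero) |>.1 (by simpa using h3))
  have k4 : ∀ X Y : Matrix ι ι F, InM A (1 + X) → InM A (1 + Y) → (1 + X) * (1 + Y) = 1 + (X + Y) := by
    rintro X Y ⟨g, hg, h1⟩ ⟨k, hk, h2⟩
    rw [← h1, ← h2, eq_sub_of_add_eq' h1.symm, eq_sub_of_add_eq' h2.symm]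
    ext i j
    rw [k2 k hk g hg]
    by_cases h : i = j <;> simp [h, k3 g hg, k3 k hk, add_comm]
  let J0 : AddSubmonoid (Matrix ι ι F) :=
    { carrier := {X | InM A (1 + X)}
      add_mem' := fun {X Y} hx hy => (InM.mul hx hy).congr (k4 X Y hx hy)
      zero_mem' := (InM.of A.one_mem).congr (by simp) }
  let J : Submodule F (Matrix ι ι F) :=
    { J0 with
      smul_mem' := fun c X hx => by
        obtain ⟨n, rfl⟩ := hF c
        rw [Nat.cast_smul_eq_nsmul]
        exact J0.nsmul_mem hx n }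
  have hJ : ∀ k ∈ normalizer (A : Set (GL ι F)), ∀ X ∈ J, k.1 * X * (k⁻¹).1 ∈ J := by
    rintro k hk X ⟨g, hg, h⟩
    exact ⟨_, H7.BD.nm hk hg, by simp [h, mul_add, add_mul]⟩
  obtain ⟨⟨g, hg⟩, h1⟩ := ne_bot_iff_exists_ne_one.1 hA
  obtain ⟨a, b, h⟩ : ∃ a b, (g.1 - 1) a b ≠ 0 := by
    by_contra! h
    exact h1 (Subtype.ext (Units.ext (sub_eq_zero.1 (Matrix.ext h))))
  have hab : a ≠ b := by rintro rfl; simp [k3 g hg] at h
  refine ⟨a, b, hab, fun c => ?_⟩
  have := J.smul_mem c (fiber2 hd he hs (hJ d n1) (hJ e n2) (X := g.1 - 1)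
    ((InM.of hg).congr (by simp)) hab h)
  rw [smul_single, smul_eq_mul, mul_one] at this
  exact this

theorem elem_of_pgroup (hF : ∀ c : F, ∃ n : ℕ, c = n) {Q : Subgroup (GL ι F)}
    (hp : IsPGroup p Q) (hQ : Q ≠ ⊥) {d e : GL ι F}
    {l m : ι → F} (hd : d.1 = diagonal l) (he : e.1 = diagonal m) (hs : Sep l m)
    (n1 : d ∈ normalizer (Q : Set (GL ι F))) (n2 : e ∈ normalizer (Q : Set (GL ι F))) :
    ∃ a b, a ≠ b ∧ ∀ c, InM Q (1 + single a b c) := by
  have := (nontrivial_iff_ne_bot Q).2 hQ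
  have := hp.center_nontrivial
  obtain ⟨⟨z, hz⟩, h1⟩ := exists_ne (1 : center Q)
  obtain ⟨a, b, h2, h3⟩ := elem_of_ab p hF (A := Q ⊓ centralizer (Q : Set (GL ι F)))
    (fun a ha b hb => hb.2 a ha.1) (hp.to_le inf_le_left)
    (ne_bot_iff_exists_ne_one.2 ⟨⟨z.1, z.2, fun g hg => congrArg Subtype.val (mem_center_iff.1 hz ⟨g, hg⟩)⟩,
      fun h => h1 (Subtype.ext (Subtype.ext (Subtype.ext_iff.1 h :)))⟩) hd he hs
    (H7.BD.norm_inf n1 (H7.BD.norm_cent n1)) (H7.BD.norm_inf n2 (H7.BD.norm_cent n2))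
  exact ⟨a, b, h2, fun c => (h3 c).mono inf_le_left⟩

omit p in
/-- unitriangular with respect to the rank function `r` -/
def Tri (r : ι → ℕ) (X : Matrix ι ι F) : Prop := ∀ a b, r b ≤ r a → X a b = (1 : Matrix ι ι F) a b

omit p [Finite F] in
theorem Tri.mul {r : ι → ℕ} {X Y : Matrix ι ι F} (h : Tri r X) (h' : Tri r Y) : Tri r (X * Y) := by
  intro a b hab
  rw [mul_apply, Finset.sum_eq_single a (fun k _ hk => ?_) (by simp), h a a le_rfl, h' a b hab, one_apply_eq,
    one_mul]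
  by_cases h1 : r k ≤ r a
  · simp [h a k h1, one_apply, hk.symm]
  · simp [h' k b (by omega), one_apply, show k ≠ b by rintro rfl; exact h1 hab]

omit [Finite F] in
theorem Tri.pow_char {r : ι → ℕ} {X : Matrix ι ι F} (h : Tri r X) : ∃ n, X ^ p ^ n = 1 := by
  have h1 : ∀ k a b, r b < r a + k → ((X - 1) ^ k) a b = 0 := fun k => by
    induction k with
    | zero => exact fun a b hab => by simp [one_apply, show a ≠ b by rintro rfl; omega]
    | succ k ih =>
      intro a b hab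
      rw [pow_succ, mul_apply]
      refine Finset.sum_eq_zero fun c _ => ?_
      by_cases h1 : r b ≤ r c
      · simp [h c b h1]
      · simp [ih a c (by omega)]
  let N := Finset.univ.sup r + 1
  have h2 : (X - 1) ^ N = 0 := Matrix.ext fun a b => h1 N a b (by
    have := Finset.le_sup (f := r) (Finset.mem_univ b); omega)
  refine ⟨N, ?_⟩
  rcases isEmpty_or_nonempty ι with h3 | h3
  · exact Subsingleton.elim _ _
  have h4 := sub_pow_char_pow_of_commute p N (Commute.one_right X)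
  rw [pow_eq_zero_of_le (Nat.lt_pow_self (Fact.out : p.Prime).one_lt).le h2, one_pow] at h4
  exact sub_eq_zero.1 h4.symm

theorem elem_of_tri (hF : ∀ c : F, ∃ n : ℕ, c = n) {M : Subgroup (GL ι F)} {d e : GL ι F}
    {l m : ι → F} (hd : d.1 = diagonal l) (he : e.1 = diagonal m) (hs : Sep l m) (h1 : d ∈ M)
    (h2 : e ∈ M) {r : ι → ℕ} {g : GL ι F} (hg : g ∈ M) (g1 : g ≠ 1) (ht : Tri r g.1) :
    ∃ a b, a ≠ b ∧ ∀ c, InM M (1 + single a b c) := by
  have hpow : ∀ (k : GL ι F) (n : ℕ), Tri r k.1 → Tri r (k ^ n).1 := fun k n hk => by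
    induction n with
    | zero => exact fun _ _ _ => rfl
    | succ n ih => rw [pow_succ]; exact ih.mul hk
  let Q : Subgroup (GL ι F) :=
    { carrier := {k | k ∈ M ∧ Tri r k.1}
      mul_mem' := fun ha hb => ⟨mul_mem ha.1 hb.1, ha.2.mul hb.2⟩
      one_mem' := ⟨one_mem _, fun _ _ _ => rfl⟩
      inv_mem' := fun {k} hk => ⟨inv_mem hk.1, by
        have : k⁻¹ = k ^ (orderOf k - 1) := (eq_inv_of_mul_eq_one_left (by
          rw [pow_sub_one_mul (orderOf_pos k).ne', pow_orderOf_eq_one])).symm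
        rw [this]; exact hpow k _ hk.2⟩ }
  have hn : ∀ (k : GL ι F) (l : ι → F), k.1 = diagonal l → k ∈ M → k ∈ normalizer (Q : Set (GL ι F)) :=
    fun k l hl hk => mem_normalizer_fintype fun x hx => ⟨mul_mem (mul_mem hk hx.1) (inv_mem hk), fun a b hab => by
      simp only [Units.val_mul, dg_cj hl, of_apply, hx.2 a b hab, one_apply]
      split_ifs with h
      · simp [h, dg_ne hl]
      · simp⟩
  obtain ⟨a, b, h3, h4⟩ := elem_of_pgroup p hF (Q := Q) (fun k => by
      obtain ⟨n, hn⟩ := k.2.2.pow_char p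
      exact ⟨n, Subtype.ext (Units.ext (by simpa using hn))⟩)
    (ne_bot_iff_exists_ne_one.2 ⟨⟨g, hg, ht⟩, fun h => g1 (congrArg Subtype.val h)⟩) hd he hs
    (hn d l hd h1) (hn e m he h2)
  exact ⟨a, b, h3, fun c => (h4 c).mono fun _ h => h.1⟩

omit p [Finite F] in
theorem SL_le_of_elem {M : Subgroup (GL ι F)} (h : ∀ a b, a ≠ b → ∀ c, InM M (1 + single a b c)) :
    Geo.specialLinear ι F ≤ M := by
  have h1 : H6.SLV F (ι → F) ≤ M.map H6.gl0.toMonoidHom := by
    refine H6.SLV_le_of_full fun v => ?_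
    rw [← Finset.univ_sum_single v]
    refine (H6.fullSub _).sum_mem fun a _ => ?_
    rw [show (Pi.single a (v a) : ι → F) = v a • Pi.single a 1 by ext i; by_cases h : i = a <;> simp [h]]
    refine (H6.fullSub _).smul_mem _ fun φ hφ => ?_
    have key : ∀ T : Finset ι, H6.HasT (M.map H6.gl0.toMonoidHom) (Pi.single a 1)
        (∑ b ∈ T, φ (Pi.single b 1) • H6.co b) := fun T => by
      induction T using Finset.induction_on with
      | empty => exact H6.HasT.zero_right _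
      | insert b T hb ih =>
        rw [Finset.sum_insert hb]
        by_cases hab : a = b
        · simpa [← hab, hφ] using ih
        obtain ⟨k, hk, e⟩ := h a b hab (φ (Pi.single b 1))
        refine H6.HasT.add_right ⟨_, ⟨k, hk, rfl⟩, fun x => ?_⟩ ih (by simp [Ne.symm hab])
        ext i
        by_cases hi : i = a <;> simp [H6.gl0_apply, e, add_mulVec, single_mulVec, hi]
    convert key Finset.univ using 1
    ext b
    simp [Pi.single_apply]
  intro g hg
  obtain ⟨k, hk, e⟩ := h1 ((H6.glEquiv_mem_SLV _ g).2 hg)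
  exact H6.gl0.injective e ▸ hk

end Cfsg.Agent.H9.C5
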