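import Cfsg.Agent.H9.C5.A
import Cfsg.Agent.H8.DicksonCore

/-! Fifth roots of unity and a consequence of Dickson's theorem. -/

set_option autoImplicit false
set_option linter.unusedSimpArgs false
set_option linter.unusedSectionVars false
set_option linter.unusedVariables false

namespace Cfsg.Agent.H9.C5

open Matrix Subgroup H8 OnePoint
open scoped MatrixGroups
open Matrix.ProjGenLinGroup (mk)

variable {F : Type*} [Field F]

/-- primitive fifth root of unity in odd characteristic -/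
structure W5 (w : F) : Prop where
  eq : w ^ 4 + w ^ 3 + w ^ 2 + w + 1 = 0
  two : (2 : F) ≠ 0
  five : (5 : F) ≠ 0

namespace W5
variable {w : F} (h : W5 w)
include h

theorem p5 : w ^ 5 = 1 := by linear_combination (w - 1) * h.eq

theorem ne0 : w ≠ 0 := by rintro rfl; simpa using h.eq

theorem ne1 : w ≠ 1 := by rintro rfl; exact h.five (by linear_combination h.eq)

theorem ord : orderOf w = 5 := haveI : Fact (Nat.Prime 5) := ⟨by norm_num⟩; orderOf_eq_prime h.p5 h.ne1

theorem pow_eq {a b : ℕ} : w ^ a = w ^ b ↔ a % 5 = b % 5 := by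
  have : w = (Units.mk0 w h.ne0 : Fˣ) := rfl
  rw [this, ← Units.val_pow_eq_pow_val, ← Units.val_pow_eq_pow_val, Units.val_inj, pow_eq_pow_iff_modEq,
    ← orderOf_units, ← this, h.ord]
  rfl

theorem pow_one' {a : ℕ} : w ^ a = 1 ↔ a % 5 = 0 := by rw [← pow_zero w, h.pow_eq]

theorem sq : W5 (w ^ 2) := ⟨by linear_combination (w ^ 4 - w ^ 3 + w ^ 2 - w + 1) * h.eq, h.two, h.five⟩

theorem root {c : F} (hc : c ^ 5 = 1) : ∃ k : Fin 5, c = w ^ (k : ℕ) := by
  have : (c - 1) * (c - w) * (c - w ^ 2) * (c - w ^ 3) * (c - w ^ 4) = 0 := by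
    linear_combination hc + (-c ^ 4 + (w ^ 3 + w) * c ^ 3 - (w ^ 5 + w ^ 3) * c ^ 2 + w ^ 6 * c -
      (w ^ 6 - w ^ 5 + w - 1)) * h.eq
  simp only [mul_eq_zero, sub_eq_zero] at this
  rcases this with (((e | e) | e) | e) | e
  exacts [⟨0, by simpa⟩, ⟨1, by simpa⟩, ⟨2, e⟩, ⟨3, e⟩, ⟨4, e⟩]

end W5

theorem dick (p : ℕ) [Fact p.Prime] [CharP F p] [Finite F] (hF : ∀ c : F, ∃ n : ℕ, c = n) {w : F}
    (hw : W5 w) {G : Type*} [Group G] [Finite G] (π : G →* Matrix (Fin 2) (Fin 2) F) {a b c : G}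
    (ha : π a = !![w, 0; 0, w ^ 4]) (hb : π b 0 0 = 0) (hb' : π b 1 1 = 0) (hc : π c 0 0 ≠ 0)
    (hc' : π c 1 0 ≠ 0) :
    (∀ g, ∃ k, (k = 2 ∨ k = 3 ∨ k = 5) ∧ π (g ^ k) 0 1 = 0 ∧ π (g ^ k) 1 0 = 0 ∧
      π (g ^ k) 0 0 = π (g ^ k) 1 1) ∨
    ∃ h : G, (∃ n, h ^ p ^ n = 1) ∧ ∃ μ, μ ≠ 0 ∧ π h = !![1, μ; 0, 1] := by
  set H := (mk.comp π.toHomUnits).range
  have mem : ∀ d, mk (π.toHomUnits d) ∈ H := fun d => ⟨d, rfl⟩
  have val : ∀ d i j, π.toHomUnits d i j = π d i j := fun _ _ _ => rfl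
  have db := det_map_ne (K := F) (π.toHomUnits b)
  simp only [val, hb, hb', Algebra.algebraMap_self, RingHom.id_apply, mul_zero, zero_sub, ne_eq,
    neg_eq_zero, mul_eq_zero, not_or] at db
  have w0 := hw.ne0
  have apow : ∀ n, π (a ^ n) = !![w ^ n, 0; 0, w ^ (4 * n)] := fun n => by
    induction n with
    | zero => simp [← one_fin_two]
    | succ n ih => rw [pow_succ, map_mul, ih, ha]; simp; ring_nf; simp
  have pair : ∀ (K : Type _) [Field K] [Algebra F K] (x y : OnePoint K), x ≠ y →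
      ¬ H ≤ pairStab F x y := by
    intro K _ _ x y hxy h
    have h1 : ∀ z : OnePoint K, mk (π.toHomUnits (a ^ 2)) • z = z → z = ∞ ∨ z = (0 : K) := fun z hz => by
      induction z using OnePoint.rec with
      | infty => exact Or.inl rfl
      | coe z =>
        rw [smul_coe_eq_coe] at hz
        simp only [val, apow] at hz
        simp only [of_apply, cons_val', cons_val_zero, cons_val_one, cons_val_fin_one, map_zero, add_zero,
          zero_mul, zero_add, mul_comm z] at hz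
        refine Or.inr (congrArg _ (by_contra fun h0 => ?_))
        simpa [hw.pow_eq] using (algebraMap F K).injective (mul_right_cancel₀ h0 hz)
    have h2 : mk (π.toHomUnits (a ^ 2)) • x = x ∧ mk (π.toHomUnits (a ^ 2)) • y = y := by
      rw [pow_two, map_mul, map_mul, mul_smul, mul_smul]
      rcases h (mem a) with ⟨e1, e2⟩ | ⟨e1, e2⟩ <;> simp [e1, e2]
    have h3 : mk (π.toHomUnits c) • (∞ : OnePoint K) ≠ ∞ := by simpa [smul_infty_eq_infty] using hc'
    have h4 : mk (π.toHomUnits c) • (∞ : OnePoint K) ≠ (0 : K) := by simpa [smul_infty_eq_coe] using hc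
    rcases h1 x h2.1 with rfl | rfl <;> rcases h1 y h2.2 with rfl | rfl <;>
      rcases h (mem c) with ⟨e1, e2⟩ | ⟨e1, e2⟩ <;> simp_all
  rcases dickson p H with ⟨x, h⟩ | ⟨x, y, hxy, h⟩ | ⟨t, u, v, ht, h⟩ | ⟨k, h1, h2, -⟩ | ⟨k, g, -, h⟩
  · exfalso
    have h1 : _ • x = x := h (mem a)
    have h2 : _ • x = x := h (mem b)
    induction x using OnePoint.rec with
    | infty => exact db.2 (smul_infty_eq_infty.1 h2)
    | coe z =>
      rw [smul_coe_eq_coe] at h1 h2
      simp only [val, ha, hb, hb'] at h1 h2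
      have : z = 0 := by
        by_contra h0
        have : w ^ 1 = w ^ 4 := mul_right_cancel₀ h0 (by simpa [mul_comm z] using h1)
        rw [hw.pow_eq] at this
        omega
      simp [this, db.1] at h2
  · exact absurd h (pair F x y hxy)
  · exact absurd h (pair _ _ _ fun e => ht.ne_conj (OnePoint.coe_injective e))
  · have key : ∀ g n, (⟨_, mem g⟩ : H) ^ n = 1 ↔ π (g ^ n) 0 1 = 0 ∧ π (g ^ n) 1 0 = 0 ∧
        π (g ^ n) 0 0 = π (g ^ n) 1 1 := fun g n => by
      rw [Subtype.ext_iff, SubgroupClass.coe_pow, ← map_pow, ← map_pow]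
      exact mk_eq_one_iff
    have : k = 5 := by
      have := h2 ⟨_, mem a⟩
      simp only [key, apow] at this
      simp [hw.pow_eq] at this
      omega
    subst this
    refine Or.inl fun g => ?_
    rcases h2 ⟨_, mem g⟩ with e | e | e <;> exact ⟨_, by simp, (key _ _).1 e⟩
  have hk : k = ⊤ := eq_top_iff.2 fun x _ => by obtain ⟨n, rfl⟩ := hF x; exact natCast_mem k n
  subst hk
  have hg : g ∈ PG (⊤ : Subfield F) := by rw [PG_top]; trivial
  obtain ⟨d, hd⟩ : transl (1 : F) ∈ H := by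
    rcases h with h | h
    · rw [h, cj_PS_of_mem hg]; exact transl_mem_PS trivial
    · rw [h, cj_PG_of_mem hg]; exact PS_le_PG _ (transl_mem_PS trivial)
  obtain ⟨l, l0, hl⟩ := exists_smul_of_mk_eq hd.symm
  have dpow : ∀ n : ℕ, π (d ^ n) = !![l ^ n, l ^ n * n; 0, l ^ n] := fun n => by
    have : π d = !![l, l; 0, l] := by
      ext i j
      refine (hl i j).trans ?_
      fin_cases i <;> fin_cases j <;> simp [mat]
    induction n with
    | zero => simp [← one_fin_two]
    | succ n ih => rw [pow_succ, map_mul, ih, this]; simp; ring_nf; simp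
  obtain ⟨e, m, hm, h1⟩ := Nat.exists_eq_pow_mul_and_not_dvd (orderOf_pos d).ne' p (Fact.out : p.Prime).ne_one
  have h2 : (d ^ m) ^ p ^ e = 1 := by rw [← pow_mul, mul_comm, ← h1, pow_orderOf_eq_one]
  have h3 : l ^ m = 1 := by
    have h3 := sub_pow_char_pow (p := p) (l ^ m) 1 e
    have h4 := dpow (m * p ^ e)
    rw [pow_mul, h2, map_one] at h4
    have h5 := congrFun (congrFun h4 0) 0
    simp only [one_apply_eq, of_apply, cons_val', cons_val_zero, pow_mul] at h5
    rw [← h5] at h3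
    exact sub_eq_zero.1 (pow_eq_zero_iff (pow_ne_zero e (Fact.out : p.Prime).ne_zero) |>.1 (by simpa using h3))
  exact Or.inr ⟨d ^ m, ⟨e, h2⟩, m, by rwa [Ne, CharP.cast_eq_zero_iff F p], by simp [dpow, h3]⟩

end Cfsg.Agent.H9.C5
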